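import Cfsg.Agent.H868.SextetCount
import Cfsg.Agent.SporadicStructure.M24El
import Cfsg.Agent.S0384
import Cfsg.Agent.S1600
import Cfsg.Agent.S0368

/-!
# Sextets relative to a dodecad
-/

set_option autoImplicit false

namespace Cfsg.Agent.H868.DodecadSextet

open Cfsg
open scoped Pointwise
open Cfsg.Agent.SporadicA.GolayBase Cfsg.Agent.SporadicA.GolayPerm
open Cfsg.Agent.SporadicStructure.Sextet (sextetOf mem_sextetOf self_mem_sextetOf)
open Cfsg.Agent.SporadicStructure.SextetAction (eq_sextetOf sextetOf_mem smul_mem_sextets)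
open Cfsg.Agent.SporadicStructure
open Cfsg.Agent.SporadicStructure.M24El
open Cfsg.Agent.H868.SextetTools Cfsg.Agent.H868.SextetCount

/-! ### Intersection numbers -/

theorem octad_dodecad {o d : Finset GolayPt} (ho : o ∈ octads) (hd : d ∈ dodecads) :
    (o ∩ d).card = 2 ∨ (o ∩ d).card = 4 ∨ (o ∩ d).card = 6 := by
  have h1 := card_symmDiff_add o d
  have h8 : o.card = 8 := ho.2
  have h12 : d.card = 12 := hd.2
  have h2 := card_of_mem_supports (symmDiff_mem_supports ho.1 hd.1)
  have h3 : (o ∩ d).card ≤ 8 := by rw [← h8]; exact Finset.card_le_card Finset.inter_subset_left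
  rw [h8, h12] at h1
  rcases h2 with h | h | h | h | h <;> omega

variable {S : Finset (Finset GolayPt)} {d : Finset GolayPt}

theorem card_inter_union {t u : Finset GolayPt} (h : Disjoint t u) (d : Finset GolayPt) :
    ((t ∪ u) ∩ d).card = (t ∩ d).card + (u ∩ d).card := by
  rw [Finset.union_inter_distrib_right, Finset.card_union_of_disjoint]
  exact Finset.disjoint_of_subset_left Finset.inter_subset_left
    (Finset.disjoint_of_subset_right Finset.inter_subset_left h)

theorem pair (hS : S ∈ sextets) (hd : d ∈ dodecads) {t u : Finset GolayPt} (ht : t ∈ S)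
    (hu : u ∈ S) (hne : t ≠ u) : (t ∩ d).card + (u ∩ d).card = 2 ∨
      (t ∩ d).card + (u ∩ d).card = 4 ∨ (t ∩ d).card + (u ∩ d).card = 6 := by
  rw [← card_inter_union (Sextet.disjoint_of_mem hS ht hu hne)]
  exact octad_dodecad (hS.2.2 t ht u hu hne) hd

theorem inter_le (hS : S ∈ sextets) {t : Finset GolayPt} (ht : t ∈ S) (d : Finset GolayPt) :
    (t ∩ d).card ≤ 4 := by
  rw [← hS.2.1 t ht]; exact Finset.card_le_card Finset.inter_subset_left

theorem sum_inter (hS : S ∈ sextets) (d : Finset GolayPt) : ∑ t ∈ S, (t ∩ d).card = d.card := by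
  classical
  rw [← Finset.card_biUnion]
  · congr 1
    ext x
    simp only [Finset.mem_biUnion, Finset.mem_inter]
    constructor
    · rintro ⟨t, -, -, h⟩; exact h
    · intro h
      obtain ⟨t, ht, hx⟩ := Sextet.exists_mem_of_sextet hS x
      exact ⟨t, ht, hx, h⟩
  · intro t ht u hu hne
    exact Finset.disjoint_of_subset_left Finset.inter_subset_left
      (Finset.disjoint_of_subset_right Finset.inter_subset_left
        (Sextet.disjoint_of_mem hS ht hu hne))

/-- The types of sextets relative to `d`. -/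
def TA (d : Finset GolayPt) (S : Finset (Finset GolayPt)) : Prop :=
  ∃ t ∈ S, (t ∩ d).card = 4 ∨ (t ∩ d).card = 0
def TB (d : Finset GolayPt) (S : Finset (Finset GolayPt)) : Prop :=
  ∃ t ∈ S, (t ∩ d).card = 3 ∨ (t ∩ d).card = 1
def TC (d : Finset GolayPt) (S : Finset (Finset GolayPt)) : Prop := ∀ t ∈ S, (t ∩ d).card = 2

theorem cases (hS : S ∈ sextets) (d : Finset GolayPt) : TC d S ∨ TA d S ∨ TB d S := by
  by_cases h : TC d S
  · exact Or.inl h
  · unfold TC at h
    push Not at h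
    obtain ⟨t, ht, h2⟩ := h
    have h4 := inter_le hS ht d
    right
    have : ((t ∩ d).card = 4 ∨ (t ∩ d).card = 0) ∨ ((t ∩ d).card = 3 ∨ (t ∩ d).card = 1) := by
      omega
    rcases this with h | h
    · exact Or.inl ⟨t, ht, h⟩
    · exact Or.inr ⟨t, ht, h⟩

theorem parity (hS : S ∈ sextets) (hd : d ∈ dodecads) {t u : Finset GolayPt} (ht : t ∈ S)
    (hu : u ∈ S) : (t ∩ d).card % 2 = (u ∩ d).card % 2 := by
  by_cases h : t = u
  · rw [h]
  · have := pair hS hd ht hu h
    omega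

theorem not_TA_TB (hS : S ∈ sextets) (hd : d ∈ dodecads) (hA : TA d S) (hB : TB d S) : False := by
  obtain ⟨t, ht, h1⟩ := hA
  obtain ⟨u, hu, h2⟩ := hB
  have := parity hS hd ht hu
  omega

theorem nonempty_of_mem (hS : S ∈ sextets) : S.Nonempty := by
  rw [← Finset.card_pos, hS.1]; norm_num

theorem not_TC_TA (hC : TC d S) (hA : TA d S) : False := by
  obtain ⟨t, ht, h1⟩ := hA
  have := hC t ht
  omega

theorem not_TC_TB (hC : TC d S) (hB : TB d S) : False := by
  obtain ⟨t, ht, h1⟩ := hB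
  have := hC t ht
  omega

theorem exists_four (hS : S ∈ sextets) (hd : d ∈ dodecads) (hA : TA d S) :
    ∃ t ∈ S, (t ∩ d).card = 4 := by
  classical
  obtain ⟨t, ht, h | h⟩ := hA
  · exact ⟨t, ht, h⟩
  · by_contra hcon
    push Not at hcon
    have h1 : ∀ u ∈ S.erase t, (u ∩ d).card = 2 := by
      intro u hu
      rw [Finset.mem_erase] at hu
      have h2 := pair hS hd ht hu.2 hu.1.symm
      have h3 := hcon u hu.2
      have h4 := inter_le hS hu.2 d
      have h5 := parity hS hd ht hu.2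
      omega
    have h2 := sum_inter hS d
    rw [← Finset.add_sum_erase S _ ht, h, Finset.sum_congr rfl h1, Finset.sum_const,
      Finset.card_erase_of_mem ht, hS.1] at h2
    have h12 : d.card = 12 := hd.2
    rw [h12] at h2
    simp at h2

theorem four_unique (hS : S ∈ sextets) (hd : d ∈ dodecads) {t u : Finset GolayPt} (ht : t ∈ S)
    (hu : u ∈ S) (h1 : (t ∩ d).card = 4) (h2 : (u ∩ d).card = 4) : t = u := by
  by_contra hne
  have := pair hS hd ht hu hne
  omega

theorem card_three (hS : S ∈ sextets) (hd : d ∈ dodecads) (hB : TB d S) :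
    (S.filter fun t => (t ∩ d).card = 3).card = 3 := by
  classical
  obtain ⟨t, ht, h⟩ := hB
  have h1 : ∀ u ∈ S, (u ∩ d).card = 3 ∨ (u ∩ d).card = 1 := by
    intro u hu
    have h2 := parity hS hd ht hu
    have h3 := inter_le hS hu d
    omega
  have h2 := sum_inter hS d
  have h3 : ∀ u ∈ S, (u ∩ d).card = 1 + if (u ∩ d).card = 3 then 2 else 0 := by
    intro u hu
    rcases h1 u hu with h | h <;> simp [h]
  rw [Finset.sum_congr rfl h3, Finset.sum_add_distrib, Finset.sum_const, hS.1,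
    ← Finset.sum_filter, Finset.sum_const, hd.2] at h2
  simp only [smul_eq_mul] at h2
  omega

theorem TB_of_three (h : (S.filter fun t => (t ∩ d).card = 3).Nonempty) : TB d S := by
  obtain ⟨t, ht⟩ := h
  rw [Finset.mem_filter] at ht
  exact ⟨t, ht.1, Or.inl ht.2⟩

/-! ### Counting -/

theorem ncard_TA (hd : d ∈ dodecads) : {S | S ∈ sextets ∧ TA d S}.ncard = 495 := by
  classical
  have h1 : {S | S ∈ sextets ∧ TA d S} =
      {S | S ∈ sextets ∧ ∃ t ∈ S, (fun t : Finset GolayPt => t ∩ d = t) t} := by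
    ext S
    constructor
    · rintro ⟨hS, hA⟩
      obtain ⟨t, ht, h4⟩ := exists_four hS hd hA
      refine ⟨hS, t, ht, ?_⟩
      apply Finset.eq_of_subset_of_card_le Finset.inter_subset_left
      rw [h4, hS.2.1 t ht]
    · rintro ⟨hS, t, ht, h⟩
      refine ⟨hS, t, ht, Or.inl ?_⟩
      have h' : t ∩ d = t := h
      rw [h', hS.2.1 t ht]
  rw [h1, ncard_of_unique]
  · have h2 : (Finset.powersetCard 4 (Finset.univ : Finset GolayPt)).filter
        (fun t => t ∩ d = t) = Finset.powersetCard 4 d := by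
      ext t
      simp only [Finset.mem_filter, Finset.mem_powersetCard, Finset.subset_univ, true_and,
        Finset.inter_eq_left]
      tauto
    rw [h2, Finset.card_powersetCard, hd.2]
    decide
  · intro S hS t ht u hu h1 h2
    apply four_unique hS hd ht hu
    · rw [h1, hS.2.1 t ht]
    · rw [h2, hS.2.1 u hu]

theorem card_three_sets (hd : d ∈ dodecads) :
    ((Finset.powersetCard 4 (Finset.univ : Finset GolayPt)).filter
      fun t => (t ∩ d).card = 3).card = 2640 := by
  classical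
  have h12 : d.card = 12 := hd.2
  have hc12 : dᶜ.card = 12 := by
    rw [Finset.card_compl, Sextet.card_golayPt, h12]
  have h1 : (Finset.powersetCard 4 (Finset.univ : Finset GolayPt)).filter
      (fun t => (t ∩ d).card = 3) =
      (Finset.powersetCard 3 d ×ˢ Finset.powersetCard 1 dᶜ).image fun p => p.1 ∪ p.2 := by
    ext t
    simp only [Finset.mem_filter, Finset.mem_powersetCard, Finset.subset_univ, true_and,
      Finset.mem_image, Finset.mem_product]
    constructor
    · rintro ⟨h4, h3⟩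
      refine ⟨(t ∩ d, t \ d), ⟨⟨Finset.inter_subset_right, h3⟩, ?_, ?_⟩, ?_⟩
      · intro x hx
        rw [Finset.mem_compl]
        exact (Finset.mem_sdiff.1 hx).2
      · show (t \ d).card = 1
        have := Finset.card_sdiff_add_card_inter t d
        omega
      · show t ∩ d ∪ t \ d = t
        rw [Finset.union_comm]
        exact Finset.sdiff_union_inter t d
    · rintro ⟨⟨u, v⟩, ⟨⟨h1, h2⟩, h3, h4⟩, rfl⟩
      have hdis : Disjoint u v := by
        rw [Finset.disjoint_left]
        intro x hx hx'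
        exact Finset.mem_compl.1 (h3 hx') (h1 hx)
      refine ⟨?_, ?_⟩
      · show (u ∪ v).card = 4
        rw [Finset.card_union_of_disjoint hdis, h2, h4]
      · show ((u ∪ v) ∩ d).card = 3
        have : (u ∪ v) ∩ d = u := by
          ext x
          rw [Finset.mem_inter, Finset.mem_union]
          constructor
          · rintro ⟨h | h, h'⟩
            · exact h
            · exact absurd h' (Finset.mem_compl.1 (h3 h))
          · intro h
            exact ⟨Or.inl h, h1 h⟩
        rw [this, h2]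
  rw [h1, Finset.card_image_of_injOn, Finset.card_product, Finset.card_powersetCard,
    Finset.card_powersetCard, h12, hc12]
  · decide
  · rintro ⟨u, v⟩ hp ⟨u', v'⟩ hp' h
    simp only [Finset.coe_product, Set.mem_prod, Finset.mem_coe, Finset.mem_powersetCard] at hp hp'
    have h' : u ∪ v = u' ∪ v' := h
    have key : ∀ {u v : Finset GolayPt}, u ⊆ d → v ⊆ dᶜ → (u ∪ v) ∩ d = u ∧ (u ∪ v) \ d = v := by
      intro u v hu hv
      constructor
      · ext x
        rw [Finset.mem_inter, Finset.mem_union]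
        constructor
        · rintro ⟨h | h, h'⟩
          · exact h
          · exact absurd h' (Finset.mem_compl.1 (hv h))
        · intro h
          exact ⟨Or.inl h, hu h⟩
      · ext x
        rw [Finset.mem_sdiff, Finset.mem_union]
        constructor
        · rintro ⟨h | h, h'⟩
          · exact absurd (hu h) h'
          · exact h
        · intro h
          exact ⟨Or.inr h, Finset.mem_compl.1 (hv h)⟩
    have k1 := key hp.1.1 hp.2.1
    have k2 := key hp'.1.1 hp'.2.1
    rw [Prod.mk.injEq]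
    exact ⟨by rw [← k1.1, ← k2.1, h'], by rw [← k1.2, ← k2.2, h']⟩

theorem ncard_TB (hd : d ∈ dodecads) : {S | S ∈ sextets ∧ TB d S}.ncard = 880 := by
  classical
  have hfin : {S | S ∈ sextets ∧ TB d S}.Finite := Set.toFinite _
  rw [Set.ncard_eq_toFinset_card _ hfin]
  have h1 : hfin.toFinset.biUnion (fun S => S.filter fun t => (t ∩ d).card = 3) =
      (Finset.powersetCard 4 (Finset.univ : Finset GolayPt)).filter
        fun t => (t ∩ d).card = 3 := by
    ext t
    simp only [Finset.mem_biUnion, Set.Finite.mem_toFinset, Set.mem_ofPred_eq, Finset.mem_filter,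
      Finset.mem_powersetCard, Finset.subset_univ, true_and]
    constructor
    · rintro ⟨S, ⟨hS, -⟩, ht, h3⟩
      exact ⟨hS.2.1 t ht, h3⟩
    · rintro ⟨h4, h3⟩
      exact ⟨sextetOf t, ⟨sextetOf_mem h4, t, self_mem_sextetOf t, Or.inl h3⟩,
        self_mem_sextetOf t, h3⟩
  have h2 : (hfin.toFinset.biUnion (fun S => S.filter fun t => (t ∩ d).card = 3)).card =
      ∑ S ∈ hfin.toFinset, (S.filter fun t => (t ∩ d).card = 3).card := by
    apply Finset.card_biUnion
    intro S hS S' hS' hne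
    show Disjoint (S.filter _) (S'.filter _)
    rw [Finset.disjoint_left]
    intro t ht ht'
    rw [Finset.mem_coe, Set.Finite.mem_toFinset] at hS hS'
    rw [Finset.mem_filter] at ht ht'
    exact hne ((eq_sextetOf hS.1 ht.1).trans (eq_sextetOf hS'.1 ht'.1).symm)
  have h3 : ∑ S ∈ hfin.toFinset, (S.filter fun t => (t ∩ d).card = 3).card =
      ∑ S ∈ hfin.toFinset, 3 := by
    apply Finset.sum_congr rfl
    intro S hS
    rw [Set.Finite.mem_toFinset] at hS
    exact card_three hS.1 hd hS.2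
  rw [h1, card_three_sets hd, h3, Finset.sum_const, smul_eq_mul] at h2
  omega

theorem ncard_TC (hd : d ∈ dodecads) : {S | S ∈ sextets ∧ TC d S}.ncard = 396 := by
  have h1771 := Sextet.ncard_sextets S0363.result
  have hfin : ∀ s : Set (Finset (Finset GolayPt)), s.Finite := fun s => Set.toFinite s
  have hun : sextets = {S | S ∈ sextets ∧ TC d S} ∪
      ({S | S ∈ sextets ∧ TA d S} ∪ {S | S ∈ sextets ∧ TB d S}) := by
    ext S
    constructor
    · intro hS
      rcases cases hS d with h | h | h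
      · exact Or.inl ⟨hS, h⟩
      · exact Or.inr (Or.inl ⟨hS, h⟩)
      · exact Or.inr (Or.inr ⟨hS, h⟩)
    · rintro (h | h | h) <;> exact h.1
  rw [hun, Set.ncard_union_eq _ (hfin _) (hfin _), Set.ncard_union_eq _ (hfin _) (hfin _),
    ncard_TA hd, ncard_TB hd] at h1771
  · omega
  · rw [Set.disjoint_left]
    rintro S ⟨hS, h1⟩ ⟨-, h2⟩
    exact not_TA_TB hS hd h1 h2
  · rw [Set.disjoint_left]
    rintro S ⟨hS, h1⟩ h2
    rcases h2 with ⟨-, h2⟩ | ⟨-, h2⟩
    · exact not_TC_TA h1 h2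
    · exact not_TC_TB h1 h2

/-! ### Transitivity on the three types -/

theorem smul_four {g : Equiv.Perm GolayPt} {a b c e a' b' c' e' : GolayPt} (h1 : g a = a')
    (h2 : g b = b') (h3 : g c = c') (h4 : g e = e') :
    g • ({a, b, c, e} : Finset GolayPt) = {a', b', c', e'} := by
  rw [Finset.smul_finset_insert, Finset.smul_finset_insert, Finset.smul_finset_insert,
    Finset.smul_finset_singleton]
  simp only [Equiv.Perm.smul_def, h1, h2, h3, h4]

/-- The dodecad stabiliser is transitive on the ordered triples of distinct points. -/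
theorem exists_map_three (hd : d ∈ dodecads) {d' : Finset GolayPt} (hd' : d' ∈ dodecads)
    {p q r p' q' r' : GolayPt} (hp : p ∈ d)
    (hq : q ∈ d) (hr : r ∈ d) (hpq : p ≠ q) (hpr : p ≠ r) (hqr : q ≠ r) (hp' : p' ∈ d')
    (hq' : q' ∈ d') (hr' : r' ∈ d') (hpq' : p' ≠ q') (hpr' : p' ≠ r') (hqr' : q' ≠ r') :
    ∃ g ∈ M24, g • d = d' ∧ g p = p' ∧ g q = q' ∧ g r = r' := by
  have ext5 : ∀ {d : Finset GolayPt}, d ∈ dodecads → ∀ {p q r : GolayPt}, p ∈ d → q ∈ d → r ∈ d →
      p ≠ q → p ≠ r → q ≠ r → ∃ x : Fin 5 → GolayPt, Function.Injective x ∧ (∀ i, x i ∈ d) ∧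
        x 0 = p ∧ x 1 = q ∧ x 2 = r := by
    intro d hd p q r hp hq hr hpq hpr hqr
    have hcard : d.card = 12 := hd.2
    obtain ⟨s, hs⟩ : (((d.erase p).erase q).erase r).Nonempty := by
      rw [← Finset.card_pos]
      rw [Finset.card_erase_of_mem, Finset.card_erase_of_mem, Finset.card_erase_of_mem hp, hcard]
      · norm_num
      · exact Finset.mem_erase.2 ⟨hpq.symm, hq⟩
      · exact Finset.mem_erase.2 ⟨hqr.symm, Finset.mem_erase.2 ⟨hpr.symm, hr⟩⟩
    obtain ⟨t, ht⟩ : ((((d.erase p).erase q).erase r).erase s).Nonempty := by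
      rw [← Finset.card_pos]
      rw [Finset.card_erase_of_mem hs, Finset.card_erase_of_mem, Finset.card_erase_of_mem,
        Finset.card_erase_of_mem hp, hcard]
      · norm_num
      · exact Finset.mem_erase.2 ⟨hpq.symm, hq⟩
      · exact Finset.mem_erase.2 ⟨hqr.symm, Finset.mem_erase.2 ⟨hpr.symm, hr⟩⟩
    simp only [Finset.mem_erase, ne_eq] at hs ht
    refine ⟨![p, q, r, s, t], ?_, ?_, rfl, rfl, rfl⟩
    · intro i j hij
      fin_cases i <;> fin_cases j <;> simp_all
    · intro i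
      fin_cases i <;> simp_all
  obtain ⟨x, hx, hxd, x0, x1, x2⟩ := ext5 hd hp hq hr hpq hpr hqr
  obtain ⟨y, hy, hyd, y0, y1, y2⟩ := ext5 hd' hp' hq' hr' hpq' hpr' hqr'
  obtain ⟨g, ⟨hg, hgd, hgx⟩, -⟩ := DodecadM12.exists_unique_dodecad_map d d' hd hd' x y hx hy hxd hyd
  exact ⟨g, hg, hgd, by rw [← x0, hgx, y0], by rw [← x1, hgx, y1], by rw [← x2, hgx, y2]⟩

/-- Three points of a dodecad and a point outside. -/
theorem exists_map_three_one (hd : d ∈ dodecads) {d' : Finset GolayPt} (hd' : d' ∈ dodecads)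
    {p q r p' q' r' x x' : GolayPt} (hp : p ∈ d)
    (hq : q ∈ d) (hr : r ∈ d) (hpq : p ≠ q) (hpr : p ≠ r) (hqr : q ≠ r) (hp' : p' ∈ d')
    (hq' : q' ∈ d') (hr' : r' ∈ d') (hpq' : p' ≠ q') (hpr' : p' ≠ r') (hqr' : q' ≠ r')
    (hx : x ∉ d) (hx' : x' ∉ d') :
    ∃ g ∈ M24, g • d = d' ∧ g p = p' ∧ g q = q' ∧ g r = r' ∧ g x = x' := by
  obtain ⟨g, hg, hgd, h1, h2, h3⟩ := exists_map_three hd hd' hp hq hr hpq hpr hqr hp' hq' hr' hpq'
    hpr' hqr'
  have hgx : g x ∉ d' := by
    rw [← hgd]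
    intro h
    exact hx ((Finset.smul_mem_smul_finset_iff g).1 h)
  obtain ⟨h, hh, hhx⟩ := (S1600.result d' hd' p' q' r' hp' hq' hr' hpq' hpr' hqr').2 (g x) hgx x' hx'
  obtain ⟨⟨⟨k1, k2⟩, k3⟩, k4⟩ := hh
  have k1' : (h : Equiv.Perm GolayPt) • d' = d' := k1
  have k2' : (h : Equiv.Perm GolayPt) p' = p' := k2
  have k3' : (h : Equiv.Perm GolayPt) q' = q' := k3
  have k4' : (h : Equiv.Perm GolayPt) r' = r' := k4
  refine ⟨h * g, M24.mul_mem h.2 hg, ?_, ?_, ?_, ?_, hhx⟩
  · rw [mul_smul, hgd, k1']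
  · rw [Equiv.Perm.mul_apply, h1, k2']
  · rw [Equiv.Perm.mul_apply, h2, k3']
  · rw [Equiv.Perm.mul_apply, h3, k4']

theorem trans_TA (hd : d ∈ dodecads) {S S' : Finset (Finset GolayPt)} (hS : S ∈ sextets)
    (hS' : S' ∈ sextets) (h : TA d S) (h' : TA d S') : ∃ g ∈ M24, g • d = d ∧ g • S = S' := by
  have key : ∀ {S : Finset (Finset GolayPt)}, S ∈ sextets → TA d S →
      ∃ x : Fin 5 ↪ GolayPt, (∀ i, x i ∈ d) ∧ ({x 0, x 1, x 2, x 3} : Finset GolayPt) ∈ S := by
    intro S hS h
    obtain ⟨t, ht, h4⟩ := exists_four hS hd h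
    have htd : t ⊆ d := by
      rw [← Finset.inter_eq_left]
      apply Finset.eq_of_subset_of_card_le Finset.inter_subset_left
      rw [h4, hS.2.1 t ht]
    obtain ⟨a, b, c, e, hab, hac, hae, hbc, hbe, hce, rfl⟩ := Finset.card_eq_four.1 (hS.2.1 t ht)
    obtain ⟨z, hz⟩ : (d \ {a, b, c, e}).Nonempty := by
      rw [← Finset.card_pos, Finset.card_sdiff_of_subset htd, hS.2.1 _ ht, hd.2]
      norm_num
    simp only [Finset.mem_sdiff, Finset.mem_insert, Finset.mem_singleton, not_or] at hz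
    have ha : a ∈ d := htd (by simp)
    have hb : b ∈ d := htd (by simp)
    have hc : c ∈ d := htd (by simp)
    have he : e ∈ d := htd (by simp)
    refine ⟨⟨![a, b, c, e, z], ?_⟩, ?_, ht⟩
    · intro i j hij
      fin_cases i <;> fin_cases j <;> simp_all
    · intro i
      fin_cases i
      · exact ha
      · exact hb
      · exact hc
      · exact he
      · exact hz.1
  obtain ⟨x, hx, hxS⟩ := key hS h
  obtain ⟨y, hy, hyS⟩ := key hS' h'
  obtain ⟨g, hg, -⟩ := S0384.result d hd x y hx hy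
  refine ⟨g, g.1.2, g.2, ?_⟩
  apply SextetStab.smul_eq_of_mem S0363.result g.1.2 hS hS' hxS
  rw [smul_four (hg 0) (hg 1) (hg 2) (hg 3)]
  exact hyS

theorem trans_TB (hd : d ∈ dodecads) {S S' : Finset (Finset GolayPt)} (hS : S ∈ sextets)
    (hS' : S' ∈ sextets) (h : TB d S) (h' : TB d S') : ∃ g ∈ M24, g • d = d ∧ g • S = S' := by
  classical
  have key : ∀ {S : Finset (Finset GolayPt)}, S ∈ sextets → TB d S →
      ∃ p q r x, p ∈ d ∧ q ∈ d ∧ r ∈ d ∧ p ≠ q ∧ p ≠ r ∧ q ≠ r ∧ x ∉ d ∧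
        ({p, q, r, x} : Finset GolayPt) ∈ S := by
    intro S hS h
    have h3 := card_three hS hd h
    obtain ⟨t, ht⟩ : (S.filter fun t => (t ∩ d).card = 3).Nonempty := by
      rw [← Finset.card_pos, h3]; norm_num
    rw [Finset.mem_filter] at ht
    obtain ⟨p, q, r, hpq, hpr, hqr, he⟩ := Finset.card_eq_three.1 ht.2
    have h1 : (t \ d).card = 1 := by
      have h5 := Finset.card_sdiff_add_card_inter t d
      have h6 := hS.2.1 t ht.1
      omega
    obtain ⟨x, hx⟩ := Finset.card_eq_one.1 h1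
    have hp : p ∈ t ∩ d := by rw [he]; simp
    have hq : q ∈ t ∩ d := by rw [he]; simp
    have hr : r ∈ t ∩ d := by rw [he]; simp
    have hx' : x ∈ t \ d := by rw [hx]; simp
    rw [Finset.mem_inter] at hp hq hr
    rw [Finset.mem_sdiff] at hx'
    refine ⟨p, q, r, x, hp.2, hq.2, hr.2, hpq, hpr, hqr, hx'.2, ?_⟩
    have : ({p, q, r, x} : Finset GolayPt) = t := by
      rw [← Finset.sdiff_union_inter t d, hx, he]
      ext z
      simp only [Finset.mem_insert, Finset.mem_singleton, Finset.mem_union]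
      tauto
    rw [this]
    exact ht.1
  obtain ⟨p, q, r, x, hp, hq, hr, hpq, hpr, hqr, hx, hm⟩ := key hS h
  obtain ⟨p', q', r', x', hp', hq', hr', hpq', hpr', hqr', hx', hm'⟩ := key hS' h'
  obtain ⟨g, hg, hgd, h1, h2, h3, h4⟩ := exists_map_three_one hd hd hp hq hr hpq hpr hqr hp' hq' hr'
    hpq' hpr' hqr' hx hx'
  refine ⟨g, hg, hgd, ?_⟩
  apply SextetStab.smul_eq_of_mem S0363.result hg hS hS' hm
  rw [smul_four h1 h2 h3 h4]
  exact hm'

/-! ### The third type: standard objects -/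

/-- The standard dodecad. -/
def dm : ℕ := 0x80d3cf

theorem dm_mem : fin dm ∈ dodecads := by
  refine ⟨?_, ?_⟩
  · rw [mem_supports_iff, maskOf_fin (by decide +kernel)]
    decide +kernel
  · rw [card_fin]
    decide +kernel

/-- Packed elements fixing the standard dodecad and the points `23`, `0`, `4`, moving `10` to
other points. -/
def mv (y : ℕ) : ℕ :=
  if y = 10 then 0xbdab49ca307b9ac5a928398a418820
  else if y = 20 then 0xb9630b4a6b19d4e6d18943ea409840
  else if y = 18 then 0xb96cd9ae3413e0c548c3406a43b920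
  else if y = 11 then 0xbc6cdac8aa12608a2cee6066430de0
  else if y = 13 then 0xbccaa8cab4331698350770ac478460
  else if y = 16 then 0xbccb2b522a1b9a65c028132a479d20
  else 0

/-- Tetrads inside the standard dodecad, of the sextet through `23, 0, 4, y`. -/
def tt (y : ℕ) : ℕ :=
  if y = 5 then 0x8182
  else if y = 21 then 0x30c
  else if y = 19 then 0xd004
  else if y = 22 then 0x40c8
  else if y = 17 then 0x1242
  else 0

/-- The mask of `{23, 0, 4, y}`. -/
def q4 (y : ℕ) : ℕ := 8388625 ^^^ 2 ^ y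

/-- First alternative. -/
def chk1 (y : ℕ) : Bool :=
  ok (mv y) && Nat.beq (pimg (mv y) dm) dm && Nat.beq (papp (mv y) 23) 23 &&
    Nat.beq (papp (mv y) 0) 0 && Nat.beq (papp (mv y) 4) 4 && Nat.beq (papp (mv y) 10) y

/-- Second alternative. -/
def chk2 (y : ℕ) : Bool :=
  Nat.beq (popcount (tt y)) 4 && Nat.beq (tt y &&& dm) (tt y) && Nat.blt (tt y) (2 ^ 24) &&
    Nat.blt (q4 y) (2 ^ 24) && Nat.beq (popcount (q4 y)) 4 && isCode (q4 y ^^^ tt y)

theorem std_chk : ∀ y : Fin 24, (dm.testBit y.val || Nat.beq y.val 4 || chk1 y.val || chk2 y.val) =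
    true := by decide +kernel

theorem std_cases (y : ℕ) (hy : y < 24) (h1 : dm.testBit y = false) (h2 : y ≠ 4) :
    (ok (mv y) = true ∧ pimg (mv y) dm = dm ∧ papp (mv y) 23 = 23 ∧ papp (mv y) 0 = 0 ∧
      papp (mv y) 4 = 4 ∧ papp (mv y) 10 = y) ∨
    (popcount (tt y) = 4 ∧ tt y &&& dm = tt y ∧ tt y < 2 ^ 24 ∧ q4 y < 2 ^ 24 ∧
      popcount (q4 y) = 4 ∧ isCode (q4 y ^^^ tt y) = true) := by
  have h := std_chk ⟨y, hy⟩
  simp only [Bool.or_eq_true, h1, Bool.false_eq_true, false_or] at h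
  rcases h with (h | h) | h
  · exact absurd (Nat.eq_of_beq_eq_true h) h2
  · left
    simp only [chk1, Bool.and_eq_true] at h
    exact ⟨h.1.1.1.1.1, Nat.eq_of_beq_eq_true h.1.1.1.1.2, Nat.eq_of_beq_eq_true h.1.1.1.2,
      Nat.eq_of_beq_eq_true h.1.1.2, Nat.eq_of_beq_eq_true h.1.2, Nat.eq_of_beq_eq_true h.2⟩
  · right
    simp only [chk2, Bool.and_eq_true] at h
    exact ⟨Nat.eq_of_beq_eq_true h.1.1.1.1.1, Nat.eq_of_beq_eq_true h.1.1.1.1.2,
      Nat.blt_eq.mp h.1.1.1.2, Nat.blt_eq.mp h.1.1.2, Nat.eq_of_beq_eq_true h.1.2, h.2⟩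

theorem q4_chk : ∀ y i : Fin 24, (dm.testBit y.val || Nat.beq y.val 4 ||
    ((q4 y.val).testBit i.val == (Nat.beq i.val 23 || Nat.beq i.val 0 || Nat.beq i.val 4 ||
      Nat.beq i.val y.val))) = true := by decide +kernel

theorem q4_testBit (y : ℕ) (hy : y < 24) (h1 : dm.testBit y = false) (h2 : y ≠ 4) (i : ℕ)
    (hi : i < 24) : (q4 y).testBit i = true ↔ i = 23 ∨ i = 0 ∨ i = 4 ∨ i = y := by
  have h := q4_chk ⟨y, hy⟩ ⟨i, hi⟩
  simp only [Bool.or_eq_true, h1, Bool.false_eq_true, false_or, beq_iff_eq] at h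
  rcases h with h | h
  · exact absurd (Nat.eq_of_beq_eq_true h) h2
  · rw [h]
    simp only [Bool.or_eq_true, Nat.beq_eq]
    tauto

theorem fin_q4 : ∀ y < 24, dm.testBit y = false → y ≠ 4 →
    ∀ p : GolayPt, p ∈ fin (q4 y) ↔ p ∈ ({pt 23, pt 0, pt 4, pt y} : Finset GolayPt) := by
  intro y hy h1 h2 p
  rw [mem_fin]
  rw [q4_testBit y hy h1 h2 _ (idx_lt p)]
  simp only [Finset.mem_insert, Finset.mem_singleton]
  have hpt : ∀ i < 24, (idx p = i ↔ p = pt i) := by
    intro i hi
    constructor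
    · rintro rfl; rw [pt_idx]
    · rintro rfl; rw [idx_pt hi]
  rw [hpt 23 (by norm_num), hpt 0 (by norm_num), hpt 4 (by norm_num), hpt y hy]

theorem std_TC {y : GolayPt} (hy : y ∉ fin dm) (hy4 : y ≠ pt 4)
    (hC : TC (fin dm) (sextetOf {pt 23, pt 0, pt 4, y})) :
    ∃ g ∈ M24, g • fin dm = fin dm ∧ g (pt 23) = pt 23 ∧ g (pt 0) = pt 0 ∧ g (pt 4) = pt 4 ∧
      g (pt 10) = y := by
  have hy' : dm.testBit (idx y) = false := by
    rw [mem_fin] at hy
    exact Bool.eq_false_iff.2 hy
  have hy4' : idx y ≠ 4 := fun h => hy4 (by rw [← h, pt_idx])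
  rcases std_cases (idx y) (idx_lt y) hy' hy4' with ⟨h1, h2, h3, h4, h5, h6⟩ |
    ⟨h1, h2, h3, h4, h5, h6⟩
  · obtain ⟨k1, k2⟩ := ok_iff.1 h1
    refine ⟨permOf _ k1, permOf_mem_M24 k1 k2, by rw [smul_fin k1, h2], ?_, ?_, ?_, ?_⟩
    · rw [permOf_apply, idx_pt (by norm_num), h3]
    · rw [permOf_apply, idx_pt (by norm_num), h4]
    · rw [permOf_apply, idx_pt (by norm_num), h5]
    · rw [permOf_apply, idx_pt (by norm_num), h6, pt_idx]
  · exfalso
    have e1 : fin (q4 (idx y)) = ({pt 23, pt 0, pt 4, y} : Finset GolayPt) := by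
      ext p
      rw [fin_q4 _ (idx_lt y) hy' hy4' p, pt_idx]
    rw [← e1] at hC
    have c1 : (fin (q4 (idx y))).card = 4 := by rw [card_fin, h5]
    have c2 : (fin (tt (idx y))).card = 4 := by rw [card_fin, h1]
    have e2 : sextetOf (fin (q4 (idx y))) = sextetOf (fin (tt (idx y))) := by
      apply SextetAction.sextetOf_eq c1 c2
      rw [← fin_xor, fin_mem_supports_iff (Nat.xor_lt_two_pow h4 h3)]
      exact h6
    rw [e2] at hC
    have h7 := hC _ (self_mem_sextetOf _)
    rw [← fin_and, h2, c2] at h7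
    norm_num at h7

theorem trans_TC (hd : d ∈ dodecads) {S S' : Finset (Finset GolayPt)} (hS : S ∈ sextets)
    (hS' : S' ∈ sextets) (h : TC d S) (h' : TC d S') : ∃ g ∈ M24, g • d = d ∧ g • S = S' := by
  classical
  have key : ∀ {S : Finset (Finset GolayPt)}, S ∈ sextets → TC d S →
      ∃ g ∈ M24, g • fin dm = d ∧ g • sextetOf {pt 23, pt 0, pt 4, pt 10} = S := by
    intro S hS h
    obtain ⟨t, ht⟩ := nonempty_of_mem hS
    have h2 := h t ht
    obtain ⟨p, q, hpq, he⟩ := Finset.card_eq_two.1 h2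
    have h2' : (t \ d).card = 2 := by
      have h5 := Finset.card_sdiff_add_card_inter t d
      have h6 := hS.2.1 t ht
      omega
    obtain ⟨x, y, hxy, he'⟩ := Finset.card_eq_two.1 h2'
    have hp : p ∈ t ∩ d := by rw [he]; simp
    have hq : q ∈ t ∩ d := by rw [he]; simp
    have hx : x ∈ t \ d := by rw [he']; simp
    have hy : y ∈ t \ d := by rw [he']; simp
    rw [Finset.mem_inter] at hp hq
    rw [Finset.mem_sdiff] at hx hy
    have hte : t = {p, q, x, y} := by
      rw [← Finset.sdiff_union_inter t d, he, he']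
      ext z
      simp only [Finset.mem_insert, Finset.mem_singleton, Finset.mem_union]
      tauto
    -- a third point of the dodecad
    obtain ⟨r, hr⟩ : ((d.erase p).erase q).Nonempty := by
      rw [← Finset.card_pos, Finset.card_erase_of_mem (Finset.mem_erase.2 ⟨hpq.symm, hq.2⟩),
        Finset.card_erase_of_mem hp.2, hd.2]
      norm_num
    simp only [Finset.mem_erase] at hr
    obtain ⟨g, hg, hgd, g1, g2, -, g4⟩ := exists_map_three_one dm_mem hd
      (p := pt 23) (q := pt 0) (r := pt 1) (x := pt 4) (p' := p) (q' := q) (r' := r) (x' := x)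
      (mem_fin.2 (by decide +kernel)) (mem_fin.2 (by decide +kernel))
      (mem_fin.2 (by decide +kernel)) (by decide) (by decide) (by decide) hp.2 hq.2 hr.2.2 hpq
      hr.2.1.symm hr.1.symm (by rw [mem_fin]; decide +kernel) hx.2
    -- the fourth point of the tetrad, moved back
    have hy0 : g⁻¹ y ∉ fin dm := by
      intro hc
      apply hy.2
      rw [← hgd]
      have h8 := Finset.smul_mem_smul_finset (a := g) hc
      have h9 : g • (g⁻¹ y) = y := Equiv.apply_symm_apply g y
      rwa [h9] at h8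
    have hgy : g (g⁻¹ y) = y := Equiv.apply_symm_apply g y
    have hy4 : g⁻¹ y ≠ pt 4 := by
      intro hc
      apply hxy
      rw [← g4, ← hc, hgy]
    have hset : g • ({pt 23, pt 0, pt 4, g⁻¹ y} : Finset GolayPt) = t := by
      rw [smul_four g1 g2 g4 hgy, hte]
    have hc4 : ({pt 23, pt 0, pt 4, g⁻¹ y} : Finset GolayPt).card = 4 := by
      rw [← Finset.card_smul_finset g, hset, hS.2.1 t ht]
    have hgS : g • sextetOf {pt 23, pt 0, pt 4, g⁻¹ y} = S := by
      apply SextetStab.smul_eq_of_mem S0363.result hg (sextetOf_mem hc4) hS (self_mem_sextetOf _)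
      rw [hset]
      exact ht
    have hC0 : TC (fin dm) (sextetOf {pt 23, pt 0, pt 4, g⁻¹ y}) := by
      intro u hu
      have h7 := h (g • u) (by rw [← hgS]; exact Finset.smul_mem_smul_finset hu)
      rw [← hgd, ← Finset.smul_finset_inter, Finset.card_smul_finset] at h7
      exact h7
    obtain ⟨k, hk, kd, k1, k2, k3, k4⟩ := std_TC hy0 hy4 hC0
    refine ⟨g * k, M24.mul_mem hg hk, by rw [mul_smul, kd, hgd], ?_⟩
    have hc4' : ({pt 23, pt 0, pt 4, pt 10} : Finset GolayPt).card = 4 := by decide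
    rw [mul_smul]
    have : k • sextetOf {pt 23, pt 0, pt 4, pt 10} = sextetOf {pt 23, pt 0, pt 4, g⁻¹ y} := by
      apply SextetStab.smul_eq_of_mem S0363.result hk (sextetOf_mem hc4') (sextetOf_mem hc4)
        (self_mem_sextetOf _)
      rw [smul_four k1 k2 k3 k4]
      exact self_mem_sextetOf _
    rw [this, hgS]
  obtain ⟨g, hg, hgd, hgS⟩ := key hS h
  obtain ⟨g', hg', hgd', hgS'⟩ := key hS' h'
  refine ⟨g' * g⁻¹, M24.mul_mem hg' (M24.inv_mem hg), ?_, ?_⟩
  · rw [mul_smul, ← hgd, inv_smul_smul, hgd', hgd]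
  · rw [mul_smul, ← hgS, inv_smul_smul, hgS']

/-! ### Orbits of the stabiliser of the pair -/

/-- The pair `{d, complement of d}`. -/
abbrev Pr (d : Finset GolayPt) : Finset (Finset GolayPt) := {d, Finset.univ \ d}

theorem smul_pair_of_smul {g : M24} (h : (g : Equiv.Perm GolayPt) • d = d) :
    g ∈ MulAction.stabilizer M24 (Pr d) := by
  rw [MulAction.mem_stabilizer_iff]
  show (g : Equiv.Perm GolayPt) • (Pr d) = Pr d
  rw [Finset.smul_finset_insert, Finset.smul_finset_singleton, Finset.smul_finset_sdiff, h,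
    Finset.smul_finset_univ]

theorem card_inter_smul {g : M24} (hg : g ∈ MulAction.stabilizer M24 (Pr d)) {t : Finset GolayPt}
    (ht : t.card = 4) : (((g : Equiv.Perm GolayPt) • t) ∩ d).card = (t ∩ d).card ∨
      (((g : Equiv.Perm GolayPt) • t) ∩ d).card = 4 - (t ∩ d).card := by
  have hg' : (g : Equiv.Perm GolayPt) • (Pr d) = Pr d := hg
  have h1 : (g : Equiv.Perm GolayPt) • d ∈ Pr d := by
    rw [← hg']
    exact Finset.smul_mem_smul_finset (by simp)
  have h2 : (((g : Equiv.Perm GolayPt) • t) ∩ ((g : Equiv.Perm GolayPt) • d)).card = (t ∩ d).card := by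
    rw [← Finset.smul_finset_inter, Finset.card_smul_finset]
  rcases Finset.mem_insert.1 h1 with h | h
  · left
    rw [h] at h2
    exact h2
  · right
    rw [Finset.mem_singleton.1 h] at h2
    have h3 : ((g : Equiv.Perm GolayPt) • t) ∩ (Finset.univ \ d) =
        ((g : Equiv.Perm GolayPt) • t) \ d := by
      ext x
      simp only [Finset.mem_inter, Finset.mem_sdiff, Finset.mem_univ, true_and]
    rw [h3] at h2
    have h4 := Finset.card_sdiff_add_card_inter ((g : Equiv.Perm GolayPt) • t) d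
    rw [Finset.card_smul_finset, ht] at h4
    omega

theorem orbit_eq (d : Finset GolayPt) (T : Finset (Finset GolayPt) → Prop)
    (hT : ∀ g ∈ MulAction.stabilizer M24 (Pr d), ∀ S ∈ sextets, T S →
      T ((g : Equiv.Perm GolayPt) • S))
    (htr : ∀ S S' : Finset (Finset GolayPt), S ∈ sextets → S' ∈ sextets → T S → T S' →
      ∃ g ∈ M24, g • d = d ∧ g • S = S') {X : Finset (Finset GolayPt)} (hX : X ∈ sextets)
    (hTX : T X) :
    MulAction.orbit ↥(MulAction.stabilizer M24 (Pr d)) X = {S | S ∈ sextets ∧ T S} := by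
  ext Y
  constructor
  · rintro ⟨⟨g, hg⟩, rfl⟩
    exact ⟨smul_mem_sextets g.2 hX, hT g hg X hX hTX⟩
  · rintro ⟨hY, hTY⟩
    obtain ⟨g, hg, hgd, hgX⟩ := htr X Y hX hY hTX hTY
    exact ⟨⟨⟨g, hg⟩, smul_pair_of_smul hgd⟩, hgX⟩

theorem smul_TA {g : M24} (hg : g ∈ MulAction.stabilizer M24 (Pr d)) {S : Finset (Finset GolayPt)}
    (hS : S ∈ sextets) (h : TA d S) : TA d ((g : Equiv.Perm GolayPt) • S) := by
  obtain ⟨t, ht, h1⟩ := h
  have h2 := card_inter_smul hg (hS.2.1 t ht)
  exact ⟨(g : Equiv.Perm GolayPt) • t, Finset.smul_mem_smul_finset ht, by omega⟩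

theorem smul_TB {g : M24} (hg : g ∈ MulAction.stabilizer M24 (Pr d)) {S : Finset (Finset GolayPt)}
    (hS : S ∈ sextets) (h : TB d S) : TB d ((g : Equiv.Perm GolayPt) • S) := by
  obtain ⟨t, ht, h1⟩ := h
  have h2 := card_inter_smul hg (hS.2.1 t ht)
  exact ⟨(g : Equiv.Perm GolayPt) • t, Finset.smul_mem_smul_finset ht, by omega⟩

theorem smul_TC {g : M24} (hg : g ∈ MulAction.stabilizer M24 (Pr d)) {S : Finset (Finset GolayPt)}
    (hS : S ∈ sextets) (h : TC d S) : TC d ((g : Equiv.Perm GolayPt) • S) := by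
  intro u hu
  obtain ⟨t, ht, rfl⟩ := Finset.mem_smul_finset.1 hu
  have h1 := h t ht
  have h2 := card_inter_smul hg (hS.2.1 t ht)
  omega

end Cfsg.Agent.H868.DodecadSextet
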