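import Cfsg.Agent.H991.OverS
import Cfsg.Prelude.Def_TwoFusion

/-!
# Simple fusion systems of finite groups: strongly closed subgroups and self-normalizing Sylow subgroups (helper868)

* `closed_of` : a subgroup strongly closed in the fusion system of `G` on `S` is strongly closed in `S`;
* `isSimple_of` : the `p`-fusion system of `G` is simple as soon as `S ≠ 1` is self-normalizing and has no proper
  nontrivial strongly closed subgroup.
-/

set_option autoImplicit false

namespace Cfsg.Agent.H868.FusSimple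

open Cfsg Cfsg.FusionSystem

theorem closed_of {G : Type*} [Group G] {S T : Subgroup G} (h : (groupFusionSystem S).StronglyClosed T) :
    IsStronglyClosed T S := by
  refine ⟨h.1, fun x hx g hg => ?_⟩
  have hR : Subgroup.zpowers x ≤ T := by rwa [Subgroup.zpowers_le]
  have hφ : ((MulAut.conj g).toMonoidHom.comp (Subgroup.zpowers x).subtype) ∈
      (groupFusionSystem S).Hom (Subgroup.zpowers x) := by
    refine ⟨hR.trans h.1, ?_, g, fun y => rfl⟩
    rintro ⟨y, n, rfl⟩
    show g * x ^ n * g⁻¹ ∈ S
    rw [← conj_zpow]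
    exact S.zpow_mem hg n
  exact h.2 _ hR _ hφ ⟨x, Subgroup.mem_zpowers x⟩

theorem autGroup_le {G : Type*} [Group G] {S : Subgroup G}
    (hN : Subgroup.normalizer (S : Set G) ≤ S) :
    (groupFusionSystem S).autGroup S ≤ autInducedBy S S := by
  intro α hα
  obtain ⟨-, -, g, hg⟩ := (Cfsg.Agent.H802.mem_autGroup_iff _ le_rfl α).1 hα
  refine (Cfsg.Agent.H802.mem_autInducedBy_iff _ _ _).2 ⟨g, hN ?_, hg⟩
  rw [Subgroup.mem_normalizer_iff]
  intro x
  constructor
  · intro hx
    have h1 := hg ⟨x, hx⟩
    rw [← h1]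
    exact (α ⟨x, hx⟩).2
  · intro hx
    obtain ⟨y, hy⟩ := α.surjective ⟨_, hx⟩
    have h1 := hg y
    have h2 : g * (y : G) * g⁻¹ = g * x * g⁻¹ := by
      rw [← h1]
      exact congrArg Subtype.val hy
    have h3 : (y : G) = x := mul_left_cancel (mul_right_cancel h2)
    rw [← h3]
    exact y.2

/-- **The criterion used for the Mathieu groups.** -/
theorem isSimple_of {G : Type*} [Group G] [Finite G] {p : ℕ} [Fact p.Prime] (S : Sylow p G)
    (hp : p ∣ Nat.card G)
    (hC : ∀ A : Subgroup G, IsStronglyClosed A (S : Subgroup G) → A = ⊥ ∨ A = (S : Subgroup G))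
    (hN : Subgroup.normalizer ((S : Subgroup G) : Set G) ≤ (S : Subgroup G)) :
    (groupFusionSystem (S : Subgroup G)).IsSimple p := by
  refine Cfsg.Agent.H991.isSimple_of_inner S.isPGroup' (Cfsg.Agent.H802.groupFusionSystem_isSaturated S)
    (S.ne_bot_of_dvd_card hp) (autGroup_le hN) fun T hT => hC T (closed_of hT)

end Cfsg.Agent.H868.FusSimple
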