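import Cfsg.Agent.H100.NormRank
import Cfsg.Agent.H326.Models
import Cfsg.Agent.H326.ModelsB

/-!
# Normal elementary abelian subgroups of order 8 (for S3102) (helper868)

`Lower S 3` for the Sylow 2-subgroups of the Mathieu groups `M₁₂`, `M₂₂`, `M₂₃`, from helper326's `NE8`.
-/

set_option autoImplicit false

namespace Cfsg.Agent.H868.NormE8

open Cfsg Cfsg.Agent.H100.NormRank Cfsg.Agent.H326.NormEight

theorem lower_of_ne8 {S : Type*} [Group S] (h : NE8 S) : Lower S 3 := by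
  obtain ⟨V, h1, h2, h3⟩ := h
  refine ⟨V, h1, ⟨isMulCommutative_of_sq h2, fun x hx => ?_⟩, h3⟩
  rw [pow_two]
  exact h2 x hx

theorem lower_M12 {X : Type*} [Group X] [Finite X] (h : Cfsg.Spor.IsoM12 X) (S : Sylow 2 X) :
    Lower ↥(S : Subgroup X) 3 :=
  lower_of_ne8 (Cfsg.Agent.H326.Models.m12 h S)

theorem lower_M22 {X : Type*} [Group X] [Finite X] (h : Cfsg.Spor.IsoM22 X) (S : Sylow 2 X) :
    Lower ↥(S : Subgroup X) 3 :=
  lower_of_ne8 (Cfsg.Agent.H326.ModelsB.m22 h S)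

theorem lower_M23 {X : Type*} [Group X] [Finite X] (h : Cfsg.Spor.IsoM23 X) (S : Sylow 2 X) :
    Lower ↥(S : Subgroup X) 3 :=
  lower_of_ne8 (Cfsg.Agent.H326.ModelsB.m23 h S)

theorem lower_alt {n : ℕ} (h8 : 8 ≤ n) (h11 : n ≤ 11) (S : Sylow 2 (alternatingGroup (Fin n))) :
    Lower ↥(S : Subgroup (alternatingGroup (Fin n))) 3 :=
  lower_of_ne8 (Cfsg.Agent.H326.Models.alt n h8 h11 S)

end Cfsg.Agent.H868.NormE8
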