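import Cfsg.Agent.H868.NormE8
import Cfsg.Agent.Schreier.McLaughlin
import Cfsg.Agent.SporadicA.MathieuRecog

/-!
# Normal elementary abelian subgroups of order 8 in the Sylow 2-subgroups of `McL` (helper868)
-/

set_option autoImplicit false

namespace Cfsg.Agent.H868.NormE8M

open Cfsg Cfsg.Agent.H100.NormRank Cfsg.Agent.H326.NormEight Cfsg.Agent.Schreier.SylMTwentyTwo

theorem ne8_T : NE8 T := by
  have : Fact (Nat.Prime 2) := ⟨Nat.prime_two⟩
  have hc := Cfsg.Agent.SporadicA.MathieuRecog.card_M22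
  have hfin : Finite Spor.M22 := Nat.finite_of_card_ne_zero (by rw [hc]; norm_num)
  have e : T.subgroupOf Spor.M22 ≃* T := Subgroup.subgroupOfEquivOfLe T_le
  have h1 : Nat.card (T.subgroupOf Spor.M22) = 2 ^ (Nat.card Spor.M22).factorization 2 := by
    rw [Nat.card_congr e.toEquiv, card_T, hc]
    have h2 : (443520 : ℕ).factorization 2 = 7 := by
      rw [show (443520 : ℕ) = 2 ^ 7 * 3465 by norm_num, Nat.factorization_mul (by norm_num) (by norm_num),
        Nat.Prime.factorization_pow Nat.prime_two, Finsupp.add_apply, Finsupp.single_eq_same,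
        Nat.factorization_eq_zero_of_not_dvd (by norm_num)]
    rw [h2]
    norm_num
  have h3 := Cfsg.Agent.H326.ModelsB.m22 (G := Spor.M22) ⟨MulEquiv.refl _⟩ (Sylow.ofCard _ h1)
  exact h3.congr e

theorem lower_McL {X : Type*} [Group X] [Finite X] (h : Cfsg.Spor.IsoMcL X) (S : Sylow 2 X) :
    Lower ↥(S : Subgroup X) 3 := by
  obtain ⟨e⟩ := h
  have : Finite Spor.McL := Finite.of_equiv _ e.toEquiv
  obtain ⟨P, ⟨f⟩⟩ := Cfsg.Agent.Schreier.McLaughlin.exists_sylow
  exact NormE8.lower_of_ne8 (of_equiv e (S := P) (ne8_T.congr f) S)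

end Cfsg.Agent.H868.NormE8M
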