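import Cfsg.Agent.S1551
import Cfsg.Agent.S1550
import Cfsg.Agent.SporadicStructure.SextetAction

/-!
# Moving sextets with marked tetrads and marked points

`exists_map_tetrads`: `M24` is transitive on sextets with any number of marked (ordered) tetrads.
`exists_map_flags`: `M24` is transitive on sextets with three marked tetrads and a marked point in
each of them.
-/

set_option autoImplicit false

namespace Cfsg.Agent.H868.SextetTools

open Cfsg
open scoped Pointwise
open Cfsg.Agent.SporadicA.GolayBase Cfsg.Agent.SporadicA.GolayPerm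
open Cfsg.Agent.SporadicStructure.Sextet (sextetOf mem_sextetOf self_mem_sextetOf)
open Cfsg.Agent.SporadicStructure.SextetAction

theorem exists_smul_sextet {S S' : Finset (Finset GolayPt)} (hS : S ∈ sextets)
    (hS' : S' ∈ sextets) : ∃ g ∈ M24, g • S = S' := by
  have hne : ∀ {S : Finset (Finset GolayPt)}, S ∈ sextets → S.Nonempty := by
    intro S hS
    rw [← Finset.card_pos, hS.1]
    norm_num
  obtain ⟨t, ht⟩ := hne hS
  obtain ⟨t', ht'⟩ := hne hS'
  obtain ⟨g, hg, hgt⟩ := SporadicStructure.SextetTrans.four_of_five S0366.result t t'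
    (hS.2.1 t ht) (hS'.2.1 t' ht')
  refine ⟨g, hg, ?_⟩
  exact SporadicStructure.SextetStab.smul_eq_of_mem S0363.result hg hS hS' ht (hgt ▸ ht')

/-- `M24` is transitive on the sextets with marked distinct tetrads. -/
theorem exists_map_tetrads {S S' : Finset (Finset GolayPt)} (hS : S ∈ sextets)
    (hS' : S' ∈ sextets) {n : ℕ} (t t' : Fin n → Finset GolayPt) (ht : ∀ i, t i ∈ S)
    (ht' : ∀ i, t' i ∈ S') (hi : Function.Injective t) (hi' : Function.Injective t') :
    ∃ g ∈ M24, g • S = S' ∧ ∀ i, g • t i = t' i := by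
  classical
  obtain ⟨g, hg, hgS⟩ := exists_smul_sextet hS hS'
  have hmem : ∀ i, g • t i ∈ S' := fun i => hgS ▸ Finset.smul_mem_smul_finset (ht i)
  let f : Fin n ↪ S' := ⟨fun i => ⟨g • t i, hmem i⟩, fun i j h => by
    have h1 : g • t i = g • t j := congrArg Subtype.val h
    exact hi (MulAction.injective g h1)⟩
  let f' : Fin n ↪ S' := ⟨fun i => ⟨t' i, ht' i⟩, fun i j h => by
    have h1 : t' i = t' j := congrArg Subtype.val h
    exact hi' h1⟩
  obtain ⟨σ, hσ⟩ := (Equiv.Perm.isMultiplyPretransitive S' n).exists_smul_eq f f'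
  obtain ⟨h, hh, hh'⟩ := (S1551.result S' hS').1 σ
  refine ⟨h * g, M24.mul_mem h.2 hg, ?_, ?_⟩
  · rw [mul_smul, hgS]
    exact MulAction.mem_stabilizer_iff.1 hh
  · intro i
    rw [mul_smul]
    have h1 := hh' (f i)
    have h2 : σ (f i) = f' i := by rw [← hσ]; rfl
    rw [h2] at h1
    exact h1

/-! ### The normal subgroup of order 64 on three tetrads -/

open SporadicStructure.SextetStd in
/-- The elements of the list `nlist` move the first points of three of the standard tetrads to
arbitrary points of these tetrads. -/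
theorem nlist_trans : ∀ a ∈ [0, 1, 2, 23], ∀ b ∈ [3, 5, 14, 17], ∀ c ∈ [8, 11, 12, 18],
    ∃ k : Fin 64, papp (nn k) 0 = a ∧ papp (nn k) 3 = b ∧ papp (nn k) 8 = c := by
  decide +kernel

open SporadicStructure.SextetStd in
theorem nn_smul_tetrad (k : Fin 64) (i : Fin 6) :
    permOf (nn k) (nn_check k).1 • fin (tm i) = fin (tm i) := by
  have h := (nn_check k).2.2 i
  rw [vchk, Bool.and_eq_true] at h
  rw [smul_fin, Nat.eq_of_beq_eq_true h.1]

open SporadicStructure.SextetStd in
theorem exists_map_std {p q r : GolayPt} (hp : p ∈ fin (tm 0)) (hq : q ∈ fin (tm 1))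
    (hr : r ∈ fin (tm 2)) : ∃ g ∈ M24, (∀ i, g • fin (tm i) = fin (tm i)) ∧
      g (pt 0) = p ∧ g (pt 3) = q ∧ g (pt 8) = r := by
  obtain ⟨k, h1, h2, h3⟩ := nlist_trans (idx p) (mem_tp 0 _ (idx_lt p) (mem_fin.1 hp))
    (idx q) (mem_tp 1 _ (idx_lt q) (mem_fin.1 hq)) (idx r) (mem_tp 2 _ (idx_lt r) (mem_fin.1 hr))
  refine ⟨permOf (nn k) (nn_check k).1, permOf_mem_M24 _ (nn_check k).2.1, nn_smul_tetrad k,
    ?_, ?_, ?_⟩
  · rw [permOf_apply, idx_pt (by norm_num), h1, pt_idx]
  · rw [permOf_apply, idx_pt (by norm_num), h2, pt_idx]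
  · rw [permOf_apply, idx_pt (by norm_num), h3, pt_idx]

/-- `M24` is transitive on the sextets with three marked tetrads and a marked point in each. -/
theorem exists_map_flags {S S' : Finset (Finset GolayPt)} (hS : S ∈ sextets)
    (hS' : S' ∈ sextets) (t t' : Fin 3 → Finset GolayPt) (ht : ∀ i, t i ∈ S)
    (ht' : ∀ i, t' i ∈ S') (hi : Function.Injective t) (hi' : Function.Injective t')
    (x x' : Fin 3 → GolayPt) (hx : ∀ i, x i ∈ t i) (hx' : ∀ i, x' i ∈ t' i) :
    ∃ g ∈ M24, g • S = S' ∧ (∀ i, g • t i = t' i) ∧ ∀ i, g (x i) = x' i := by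
  have key : ∀ (S : Finset (Finset GolayPt)), S ∈ sextets → ∀ (t : Fin 3 → Finset GolayPt),
      (∀ i, t i ∈ S) → Function.Injective t → ∀ x : Fin 3 → GolayPt, (∀ i, x i ∈ t i) →
      ∃ g ∈ M24, g • SporadicStructure.SextetStd.stdSextet = S ∧
        (∀ i : Fin 3, g • fin (SporadicStructure.SextetStd.tm (Fin.castLE (by norm_num) i)) = t i) ∧
        ∀ i, g (![pt 0, pt 3, pt 8] i) = x i := by
    intro S hS t ht hi x hx
    obtain ⟨g, hg, hgS, hgt⟩ := exists_map_tetrads SporadicStructure.SextetStd.stdSextet_mem hS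
      (fun i : Fin 3 => fin (SporadicStructure.SextetStd.tm (Fin.castLE (by norm_num) i))) t
      (fun i => SporadicStructure.SextetStd.mem_stdSextet.2 ⟨_, rfl⟩) ht (by
        intro i j h
        have h1 := SporadicStructure.SextetStd.fin_tm_injective h
        exact Fin.castLE_injective (by norm_num) h1) hi
    have hinv : ∀ i : Fin 3, g⁻¹ (x i) ∈
        fin (SporadicStructure.SextetStd.tm (Fin.castLE (by norm_num) i)) := by
      intro i
      have h1 := Finset.smul_mem_smul_finset (a := g⁻¹) (hx i)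
      rw [← hgt i, inv_smul_smul] at h1
      exact h1
    obtain ⟨h, hh, hht, h0, h1, h2⟩ := exists_map_std (hinv 0) (hinv 1) (hinv 2)
    have hfix : h • SporadicStructure.SextetStd.stdSextet =
        SporadicStructure.SextetStd.stdSextet :=
      SporadicStructure.SextetStab.smul_eq_of_mem S0363.result hh
        SporadicStructure.SextetStd.stdSextet_mem SporadicStructure.SextetStd.stdSextet_mem
        (SporadicStructure.SextetStd.mem_stdSextet.2 ⟨0, rfl⟩) (by
          rw [hht]
          exact SporadicStructure.SextetStd.mem_stdSextet.2 ⟨0, rfl⟩)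
    refine ⟨g * h, M24.mul_mem hg hh, ?_, ?_, ?_⟩
    · rw [mul_smul, hfix, hgS]
    · intro i
      rw [mul_smul, hht]
      exact hgt i
    · intro i
      rw [Equiv.Perm.mul_apply]
      fin_cases i
      · show g (h (pt 0)) = x 0
        rw [h0]; exact Equiv.apply_symm_apply g _
      · show g (h (pt 3)) = x 1
        rw [h1]; exact Equiv.apply_symm_apply g _
      · show g (h (pt 8)) = x 2
        rw [h2]; exact Equiv.apply_symm_apply g _
  obtain ⟨g, hg, hgS, hgt, hgx⟩ := key S hS t ht hi x hx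
  obtain ⟨g', hg', hgS', hgt', hgx'⟩ := key S' hS' t' ht' hi' x' hx'
  refine ⟨g' * g⁻¹, M24.mul_mem hg' (M24.inv_mem hg), ?_, ?_, ?_⟩
  · rw [mul_smul, ← hgS, inv_smul_smul, hgS']
  · intro i
    rw [mul_smul, ← hgt, inv_smul_smul, hgt']
  · intro i
    rw [Equiv.Perm.mul_apply, ← hgx i, ← hgx' i]
    congr 1
    exact Equiv.symm_apply_apply g _

end Cfsg.Agent.H868.SextetTools
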